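import Mathlib
import Cfsg.Prelude.Def_Blocks
import Cfsg.Agent.Characters.ClassMul
import Cfsg.Agent.Characters.AverageRoots
import Cfsg.Agent.H664.R1.RankDeg

/-!
# Convolution with the class of an involution (helper266, piece (v) of [S13] of (M,23), S4929)

* `conv_irr` : `⟨T f, ψ⟩ = ω_ψ(t) ⟨f, ψ⟩` for irreducible `ψ`, `T f y = ∑ f (y k)` over the conjugates `k` of the
  involution `t`.
* `conv_dvd` : if `p` divides the number of conjugates of `t`, and `Φ` is a character all of whose irreducible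
  constituents have degree prime to `p`, then `⟨T f, Φ⟩ / p` is an algebraic integer.
-/

set_option autoImplicit false
set_option linter.unusedSectionVars false

namespace Cfsg.Agent.H266.M13

open Cfsg Cfsg.Agent.Characters.Core Cfsg.Agent.Characters.ClassMul
open scoped BigOperators ComplexConjugate Classical

universe u

variable {L : Type u} [Group L] [Fintype L]

/-- convolution with the class of `t` -/
noncomputable def conv (t : L) (f : L → ℂ) : L → ℂ := fun y => ∑ k with IsConj t k, f (y * k)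

theorem conv_irr {t : L} (ht : t * t = 1) {ψ : L → ℂ} (hψ : IsIrrCharacter L ψ) (f : L → ℂ) :
    classInner (conv t f) ψ =
      (((Subgroup.centralizer ({t} : Set L)).index : ℂ) * ψ t / ψ 1) * classInner f ψ := by
  have hinv : ∀ k : L, IsConj t k → k⁻¹ = k := by
    intro k hk
    obtain ⟨c, rfl⟩ := isConj_iff.mp hk
    have : t⁻¹ = t := inv_eq_of_mul_eq_one_left ht
    rw [mul_inv_rev, mul_inv_rev, inv_inv, this, mul_assoc]
  have hcl := isIrr_isClassFunction hψ
  have hc : ∀ x : L, conj (ψ x⁻¹) = ψ x := by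
    intro x
    rw [isCharacter_apply_inv (isIrr_isCharacter hψ) x, Complex.conj_conj]
  have hreal : conj (ψ t) = ψ t := by
    have h := hc t
    rwa [inv_eq_of_mul_eq_one_left ht] at h
  have h1 : conj (ψ 1) = ψ 1 := by
    have h := hc 1
    rwa [inv_one] at h
  have key : ∀ y : L, ∑ k with IsConj t k, conj (ψ (y * k)) =
      ((Subgroup.centralizer ({t} : Set L)).index : ℂ) * ψ t / ψ 1 * conj (ψ y) := by
    intro y
    have h2 := sum_class_char_mul hψ t y
    have h3 : ∑ k with IsConj t k, ψ (y * k) = ∑ k with IsConj t k, ψ (k * y) := by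
      refine Finset.sum_congr rfl fun k _ => ?_
      have := hcl (k * y) k⁻¹
      rw [← this]
      congr 1
      group
    rw [← map_sum, h3, h2]
    simp only [map_div₀, map_mul, Complex.conj_natCast, hreal, h1]
    ring
  unfold conv
  rw [classInner_def, classInner_def]
  have h4 : ∑ g : L, (∑ k with IsConj t k, f (g * k)) * conj (ψ g) =
      ∑ g : L, f g * ∑ k with IsConj t k, conj (ψ (g * k)) := by
    simp only [Finset.sum_mul, Finset.mul_sum]
    rw [Finset.sum_comm]
    rw [Finset.sum_comm (s := (Finset.univ : Finset L))]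
    refine Finset.sum_congr rfl fun k hk => ?_
    rw [← Equiv.sum_comp (Equiv.mulRight k) (fun g => f g * conj (ψ (g * k)))]
    refine Finset.sum_congr rfl fun g _ => ?_
    have hk2 : k * k = 1 := by
      have := hinv k (Finset.mem_filter.mp hk).2
      nth_rewrite 1 [← this]
      exact inv_mul_cancel k
    simp only [Equiv.coe_mulRight]
    rw [mul_assoc g k k, hk2, mul_one]
  rw [h4]
  simp only [key]
  rw [show (∑ g : L, f g * (((Subgroup.centralizer ({t} : Set L)).index : ℂ) * ψ t / ψ 1 * conj (ψ g))) =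
    (((Subgroup.centralizer ({t} : Set L)).index : ℂ) * ψ t / ψ 1) * ∑ g : L, f g * conj (ψ g) by
      rw [Finset.mul_sum]
      exact Finset.sum_congr rfl fun g _ => by ring]
  ring

theorem exists_nat_deg {ψ : L → ℂ} (hψ : IsIrrCharacter L ψ) : ψ 1 = (charDegree ψ : ℂ) := by
  obtain ⟨n, -, hn⟩ := isIrr_apply_one hψ
  unfold charDegree
  rw [hn]
  simp

theorem isIntegral_apply {ψ : L → ℂ} (hψ : IsIrrCharacter L ψ) (g : L) : IsIntegral ℤ (ψ g) := by
  obtain ⟨n, ρ, -, rfl⟩ := hψ
  exact Cfsg.Agent.Characters.AverageRoots.isIntegral_character ρ g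

theorem omega_dvd {p : ℕ} (hp : p.Prime) {t : L} (hpt : p ∣ (Subgroup.centralizer ({t} : Set L)).index)
    {ψ : L → ℂ} (hψ : IsIrrCharacter L ψ) (hd : ¬ p ∣ charDegree ψ) :
    ∃ b : ℂ, IsIntegral ℤ b ∧
      ((Subgroup.centralizer ({t} : Set L)).index : ℂ) * ψ t / ψ 1 = p * b := by
  obtain ⟨m, hm⟩ := hpt
  have h1 := Cfsg.Agent.H664.R1.isIntegral_central hψ t
  set ω := ((Subgroup.centralizer ({t} : Set L)).index : ℂ) * ψ t / ψ 1 with hω
  have hd0 : ψ 1 ≠ 0 := isIrr_apply_one_ne_zero hψ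
  have h2 : (charDegree ψ : ℂ) * ω = p * (m * ψ t) := by
    rw [hω, hm, ← exists_nat_deg hψ]
    push_cast
    field_simp
  have hc : Nat.Coprime p (charDegree ψ) := (Nat.Prime.coprime_iff_not_dvd hp).mpr hd
  have hb : (p : ℤ) * Nat.gcdA p (charDegree ψ) + (charDegree ψ : ℤ) * Nat.gcdB p (charDegree ψ) = 1 := by
    have := Nat.gcd_eq_gcd_ab p (charDegree ψ)
    rw [hc] at this
    exact_mod_cast this.symm
  set u := Nat.gcdA p (charDegree ψ)
  set v := Nat.gcdB p (charDegree ψ)
  have hb' : (p : ℂ) * u + (charDegree ψ : ℂ) * v = 1 := by exact_mod_cast hb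
  refine ⟨u * ω + v * (m * ψ t), ?_, ?_⟩
  · refine IsIntegral.add (IsIntegral.mul (isIntegral_algebraMap (x := u)) h1) (IsIntegral.mul
      (isIntegral_algebraMap (x := v)) (IsIntegral.mul ?_ (isIntegral_apply hψ t)))
    exact_mod_cast isIntegral_algebraMap (R := ℤ) (A := ℂ) (x := (m : ℤ))
  · linear_combination (-ω) * hb' + (v : ℂ) * h2

/-- `⟨T f, Φ⟩` is divisible by `p` if all constituents of `Φ` have degree prime to `p`. -/
theorem conv_dvd {p : ℕ} (hp : p.Prime) {t : L} (ht : t * t = 1)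
    (hpt : p ∣ (Subgroup.centralizer ({t} : Set L)).index) {Φ : L → ℂ} (hΦ : IsCharacter L Φ)
    (hd : ∀ ψ : IrrCharacter L, classInner (ψ : L → ℂ) Φ ≠ 0 → ¬ p ∣ charDegree (ψ : L → ℂ)) {f : L → ℂ}
    (hf : ∀ ψ : IrrCharacter L, IsIntegral ℤ (classInner f (ψ : L → ℂ))) :
    ∃ b : ℂ, IsIntegral ℤ b ∧ classInner (conv t f) Φ = p * b := by
  have := finite_irr (G := L)
  have := Fintype.ofFinite (IrrCharacter L)
  obtain ⟨m, hm⟩ := exists_nat_comb hΦ
  have h1 : ∀ ψ : IrrCharacter L, ∃ b : ℂ, IsIntegral ℤ b ∧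
      (m ψ : ℂ) * classInner (conv t f) (ψ : L → ℂ) = p * b := by
    intro ψ
    by_cases h0 : m ψ = 0
    · exact ⟨0, isIntegral_zero, by rw [h0]; simp⟩
    · have h2 : classInner (ψ : L → ℂ) Φ ≠ 0 := by
        rw [← classInner_conj_symm, hm]
        have := classInner_sum_nsmul_irr m ψ
        rw [this]
        simpa using h0
      obtain ⟨b, hb, e⟩ := omega_dvd hp hpt ψ.2 (hd ψ h2)
      refine ⟨(m ψ : ℂ) * (b * classInner f (ψ : L → ℂ)), ?_, ?_⟩
      · refine IsIntegral.mul ?_ (IsIntegral.mul hb (hf ψ))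
        exact_mod_cast isIntegral_algebraMap (R := ℤ) (A := ℂ) (x := (m ψ : ℤ))
      · rw [conv_irr ht ψ.2, e]
        ring
  choose b hb e using h1
  refine ⟨∑ ψ, b ψ, IsIntegral.sum _ fun ψ _ => hb ψ, ?_⟩
  rw [hm, classInner_sum_right, Finset.mul_sum]
  refine Finset.sum_congr rfl fun ψ _ => ?_
  rw [← e ψ, ← Nat.cast_smul_eq_nsmul ℂ, classInner_smul_right]
  simp

end Cfsg.Agent.H266.M13
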